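import Mathlib
import Cfsg.Prelude.Def_GeometricClasses

/-!
# S6000 (team project C64): package interface

`PSL_4(p)`, `p ≡ 1 (mod 4)`, and the normalizer of `R = 4 ∘ 2^{1+4}` (order `2^6`): every element
of prime order `r` (with `r` dividing the index) is conjugate into `N(R)` iff
`r = 2 ∨ (r = 3 ∧ p % 3 = 2) ∨ (r = 5 ∧ orderOf (p : ZMod 5) = 4)`.

Every `Pkg...` below is a `Prop`; a package is delivered as a theorem whose type is that `Prop`.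
Index convention on `Fin 4`: index `= 2 * i + j` for the tensor factor positions `(i, j)`;
`mZa = Z ⊗ 1`, `mXa = X ⊗ 1`, `mZb = 1 ⊗ Z`, `mXb = 1 ⊗ X`, and `R0 ι = ⟨ι, mZa, mXa, mZb, mXb⟩`
(`ι ^ 2 = -1`) is the standard model of `R`.
-/

set_option autoImplicit false

namespace Cfsg.Agent.Lib.Helper99.C64

open Matrix

universe u

/-- `4 × 4` matrices. -/
abbrev M4 (F : Type u) [Field F] : Type u := Matrix (Fin 4) (Fin 4) F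

section mats

variable (F : Type u) [Field F]

/-- `Z ⊗ 1`. -/
def mZa : M4 F := !![1, 0, 0, 0; 0, 1, 0, 0; 0, 0, -1, 0; 0, 0, 0, -1]
/-- `X ⊗ 1`. -/
def mXa : M4 F := !![0, 0, 1, 0; 0, 0, 0, 1; 1, 0, 0, 0; 0, 1, 0, 0]
/-- `1 ⊗ Z`. -/
def mZb : M4 F := !![1, 0, 0, 0; 0, -1, 0, 0; 0, 0, 1, 0; 0, 0, 0, -1]
/-- `1 ⊗ X`. -/
def mXb : M4 F := !![0, 1, 0, 0; 1, 0, 0, 0; 0, 0, 0, 1; 0, 0, 1, 0]
/-- `diag(1,1,1,-1)` (controlled `Z`). -/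
def d1 : M4 F := !![1, 0, 0, 0; 0, 1, 0, 0; 0, 0, 1, 0; 0, 0, 0, -1]
/-- `diag(1,-1,-1,-1) = mZa * mZb * d1`. -/
def d3 : M4 F := !![1, 0, 0, 0; 0, -1, 0, 0; 0, 0, -1, 0; 0, 0, 0, -1]

/-- The special linear group of degree 4 inside `GL`. -/
abbrev SL4 : Subgroup (GL (Fin 4) F) := Cfsg.Geo.specialLinear (Fin 4) F

end mats

variable {F : Type u} [Field F]

/-- Hurwitz unit `(-1 + I + J + K) / 2` with `I = ι mZa`, `J = ι mXa`, `K = I J`: order 3,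
no fixed vector (`hA ^ 2 + hA + 1 = 0`). -/
def hA (ι : F) : M4 F :=
  (2 : F)⁻¹ • !![-1 + ι, 0, -1 + ι, 0; 0, -1 + ι, 0, -1 + ι; 1 + ι, 0, -1 - ι, 0; 0, 1 + ι, 0, -1 - ι]

/-- Product of the two Hurwitz units of the two tensor factors: order 3, fixed space of
dimension 2, trace 1. -/
def hB (ι : F) : M4 F :=
  (2 : F)⁻¹ • !![-ι, -ι, -ι, -ι; -1, 1, -1, 1; -1, -1, 1, 1; ι, -ι, -ι, ι]

/-- An element of order 5 (`g5 ^ 5 = 1`, trace `-1`). -/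
def g5 (ι : F) : M4 F :=
  (2 : F)⁻¹ • !![-ι, -ι, 1, -1; -ι, ι, 1, 1; -ι, -ι, -1, 1; -ι, ι, -1, -1]

/-- The generating matrices of the standard group. -/
def gens (ι : F) : Set (M4 F) := {ι • (1 : M4 F), mZa F, mXa F, mZb F, mXb F}

/-- The standard group `R0 = ⟨ι, Z ⊗ 1, X ⊗ 1, 1 ⊗ Z, 1 ⊗ X⟩` of order 64. -/
def R0 (ι : F) : Subgroup (GL (Fin 4) F) :=
  Subgroup.closure {g : GL (Fin 4) F | (g : M4 F) ∈ gens ι}

/-- Its normalizer in `GL_4(F)`. -/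
def N0 (ι : F) : Subgroup (GL (Fin 4) F) := Cfsg.Geo.subgroupNormalizer (R0 ι)

/-- The centralizer of `y` in `R0`. -/
def C0 (ι : F) (y : GL (Fin 4) F) : Subgroup (GL (Fin 4) F) := R0 ι ⊓ Subgroup.centralizer {y}

/-- `x` is a scalar matrix. -/
def IsScal (x : GL (Fin 4) F) : Prop := ∃ z : F, (x : M4 F) = z • (1 : M4 F)

/-- Every element of `R` squares to `1` or `-1`. -/
def SqPM (R : Subgroup (GL (Fin 4) F)) : Prop :=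
  ∀ g ∈ R, (g : M4 F) * (g : M4 F) = 1 ∨ (g : M4 F) * (g : M4 F) = -1

/-- Any two elements of `R` commute or anticommute. -/
def CommPM (R : Subgroup (GL (Fin 4) F)) : Prop :=
  ∀ g ∈ R, ∀ k ∈ R, (g : M4 F) * (k : M4 F) = (k : M4 F) * (g : M4 F) ∨
    (g : M4 F) * (k : M4 F) = -((k : M4 F) * (g : M4 F))

/-- The relations of the standard generators. -/
def IsStdRel (a1 b1 a2 b2 : M4 F) : Prop :=
  a1 * a1 = 1 ∧ b1 * b1 = 1 ∧ a2 * a2 = 1 ∧ b2 * b2 = 1 ∧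
  a1 * b1 = -(b1 * a1) ∧ a2 * b2 = -(b2 * a2) ∧
  a1 * a2 = a2 * a1 ∧ a1 * b2 = b2 * a1 ∧ b1 * a2 = a2 * b1 ∧ b1 * b2 = b2 * b1

/-- `a1, b1, a2, b2 ∈ R` satisfy the standard relations, `ι ∈ R`, and every element of `R` is a
fourth root of unity times a word `a1^e1 b1^e2 a2^e3 b2^e4`. -/
def IsStdGens (ι : F) (R : Subgroup (GL (Fin 4) F)) (a1 b1 a2 b2 : GL (Fin 4) F) : Prop :=
  a1 ∈ R ∧ b1 ∈ R ∧ a2 ∈ R ∧ b2 ∈ R ∧ (∃ z ∈ R, (z : M4 F) = ι • (1 : M4 F)) ∧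
  IsStdRel (a1 : M4 F) (b1 : M4 F) (a2 : M4 F) (b2 : M4 F) ∧
  ∀ g ∈ R, ∃ (c : F) (e1 e2 e3 e4 : ℕ), c ^ 4 = 1 ∧
    (g : M4 F) = c • ((a1 : M4 F) ^ e1 * (b1 : M4 F) ^ e2 * (a2 : M4 F) ^ e3 * (b2 : M4 F) ^ e4)

/-- Facts about the standard group. -/
def R0Facts (ι : F) : Prop :=
  Nat.card (R0 ι) = 64 ∧
  (∀ g ∈ R0 ι, IsScal g ∨ Matrix.trace (g : M4 F) = 0) ∧
  (∀ g ∈ R0 ι, ∀ c : F, (g : M4 F) = c • (1 : M4 F) → c ^ 4 = 1) ∧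
  (∀ c : F, c ^ 4 = 1 → ∃ g ∈ R0 ι, (g : M4 F) = c • (1 : M4 F)) ∧
  SqPM (R0 ι) ∧ CommPM (R0 ι) ∧
  (∀ y : M4 F, (∀ g ∈ R0 ι, (g : M4 F) * y = y * (g : M4 F)) → ∃ c : F, y = c • (1 : M4 F)) ∧
  (∀ g ∈ R0 ι, ∃ (k e1 e2 e3 e4 : ℕ),
    (g : M4 F) = ι ^ k • (mZa F ^ e1 * mXa F ^ e2 * mZb F ^ e3 * mXb F ^ e4)) ∧
  (∀ g : GL (Fin 4) F, (∃ (k e1 e2 e3 e4 : ℕ),
    (g : M4 F) = ι ^ k • (mZa F ^ e1 * mXa F ^ e2 * mZb F ^ e3 * mXb F ^ e4)) → g ∈ R0 ι)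

/-! ## Frame packages -/

/-- [STRUCT] squares are `±1` and elements commute up to sign (from P. Hall, landed S3762). -/
def PkgStruct : Prop :=
  ∀ (F : Type u) [Field F] [Fintype F] (p : ℕ) [Fact p.Prime] [CharP F p],
    Fintype.card F = p → p % 4 = 1 → ∀ R : Subgroup (GL (Fin 4) F),
    Cfsg.Geo.IsLinearSymplecticTypeData 2 R → Nat.card R = 2 ^ 6 → SqPM R ∧ CommPM R

/-- [GENS] standard generators. -/
def PkgGens : Prop :=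
  ∀ (F : Type u) [Field F] [Fintype F] (p : ℕ) [Fact p.Prime] [CharP F p],
    Fintype.card F = p → p % 4 = 1 → ∀ R : Subgroup (GL (Fin 4) F),
    Cfsg.Geo.IsLinearSymplecticTypeData 2 R → Nat.card R = 2 ^ 6 → SqPM R → CommPM R →
    ∃ ι : F, ι ^ 2 = -1 ∧ ∃ a1 b1 a2 b2 : GL (Fin 4) F, IsStdGens ι R a1 b1 a2 b2

/-- [BASIS] matrices with the standard relations are simultaneously conjugate to the standard
ones. -/
def PkgBasis : Prop :=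
  ∀ (F : Type u) [Field F], (2 : F) ≠ 0 → ∀ a1 b1 a2 b2 : M4 F, IsStdRel a1 b1 a2 b2 →
    ∃ h : GL (Fin 4) F,
      ((h⁻¹ : GL (Fin 4) F) : M4 F) * a1 * (h : M4 F) = mZa F ∧
      ((h⁻¹ : GL (Fin 4) F) : M4 F) * b1 * (h : M4 F) = mXa F ∧
      ((h⁻¹ : GL (Fin 4) F) : M4 F) * a2 * (h : M4 F) = mZb F ∧
      ((h⁻¹ : GL (Fin 4) F) : M4 F) * b2 * (h : M4 F) = mXb F

/-- [FRAME] `N(R)` is a `GL_4`-conjugate of `N(R0 ι)`. -/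
def PkgFrame : Prop :=
  ∀ (F : Type u) [Field F] [Fintype F] (p : ℕ) [Fact p.Prime] [CharP F p],
    Fintype.card F = p → p % 4 = 1 → ∀ R : Subgroup (GL (Fin 4) F),
    Cfsg.Geo.IsLinearSymplecticTypeData 2 R → Nat.card R = 2 ^ 6 →
    ∃ ι : F, ι ^ 2 = -1 ∧ ∃ h : GL (Fin 4) F, ∀ y : GL (Fin 4) F,
      y ∈ Cfsg.Geo.subgroupNormalizer R ↔ h⁻¹ * y * h ∈ N0 ι

/-! ## The standard group and its normalizer -/

/-- [R0] facts about the standard group. -/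
def PkgR0 : Prop :=
  ∀ (F : Type u) [Field F] [Fintype F], (2 : F) ≠ 0 → ∀ ι : F, ι ^ 2 = -1 → R0Facts ι

/-- [NGEN] membership in the normalizer can be checked on the generators. -/
def PkgNGen : Prop :=
  ∀ (F : Type u) [Field F] [Fintype F] (ι : F) (g : GL (Fin 4) F),
    (∀ s : GL (Fin 4) F, (s : M4 F) ∈ gens ι → g * s * g⁻¹ ∈ R0 ι) → g ∈ N0 ι

/-- [ND] scalar multiples of `d1`, `mZa`, `d3` normalize `R0`. -/
def PkgND : Prop :=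
  ∀ (F : Type u) [Field F] [Fintype F], (2 : F) ≠ 0 → ∀ ι : F, ι ^ 2 = -1 →
    ∀ (y : GL (Fin 4) F) (c : F),
      ((y : M4 F) = c • d1 F ∨ (y : M4 F) = c • mZa F ∨ (y : M4 F) = c • d3 F) → y ∈ N0 ι

/-- [NH] scalar multiples of `hA`, `hB` normalize `R0`. -/
def PkgNH : Prop :=
  ∀ (F : Type u) [Field F] [Fintype F], (2 : F) ≠ 0 → ∀ ι : F, ι ^ 2 = -1 →
    ∀ (y : GL (Fin 4) F) (c : F),
      ((y : M4 F) = c • hA ι ∨ (y : M4 F) = c • hB ι) → y ∈ N0 ι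

/-- [NG] scalar multiples of `g5` normalize `R0`. -/
def PkgNG : Prop :=
  ∀ (F : Type u) [Field F] [Fintype F], (2 : F) ≠ 0 → ∀ ι : F, ι ^ 2 = -1 →
    ∀ (y : GL (Fin 4) F) (c : F), (y : M4 F) = c • g5 ι → y ∈ N0 ι

/-! ## Positive cases -/

/-- [POS2] involutions of `PSL_4(p)` are conjugate into `N(R0)`. -/
def PkgPos2 : Prop :=
  ∀ (F : Type u) [Field F] [Fintype F] (p : ℕ) [Fact p.Prime] [CharP F p],
    Fintype.card F = p → p % 4 = 1 → ∀ ι : F, ι ^ 2 = -1 →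
    ∀ x ∈ SL4 F, (∃ z : F, ((x ^ 2 : GL (Fin 4) F) : M4 F) = z • (1 : M4 F)) → ¬ IsScal x →
      ∃ g ∈ SL4 F, g⁻¹ * x * g ∈ N0 ι

/-- [POS3] `p ≡ 2 (mod 3)`: elements of order 3 of `PSL_4(p)` are conjugate into `N(R0)`. -/
def PkgPos3 : Prop :=
  ∀ (F : Type u) [Field F] [Fintype F] (p : ℕ) [Fact p.Prime] [CharP F p],
    Fintype.card F = p → p % 4 = 1 → p % 3 = 2 → ∀ ι : F, ι ^ 2 = -1 →
    ∀ x ∈ SL4 F, (∃ z : F, ((x ^ 3 : GL (Fin 4) F) : M4 F) = z • (1 : M4 F)) → ¬ IsScal x →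
      ∃ g ∈ SL4 F, g⁻¹ * x * g ∈ N0 ι

/-- [POS5] `ord_5(p) = 4`: elements of order 5 of `PSL_4(p)` are conjugate into `N(R0)`. -/
def PkgPos5 : Prop :=
  ∀ (F : Type u) [Field F] [Fintype F] (p : ℕ) [Fact p.Prime] [CharP F p],
    Fintype.card F = p → p % 4 = 1 → orderOf (p : ZMod 5) = 4 → ∀ ι : F, ι ^ 2 = -1 →
    ∀ x ∈ SL4 F, (∃ z : F, ((x ^ 5 : GL (Fin 4) F) : M4 F) = z • (1 : M4 F)) → ¬ IsScal x →
      ∃ g ∈ SL4 F, g⁻¹ * x * g ∈ N0 ι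

/-! ## The centralizer lemma -/

/-- [CENTTR] trace identity for elements of odd order of `N(R0)`. -/
def PkgCentTr : Prop :=
  ∀ (F : Type u) [Field F] [Fintype F], (2 : F) ≠ 0 → ∀ ι : F, ι ^ 2 = -1 →
    ∀ y ∈ N0 ι, ∀ m : ℕ, Odd m → y ^ m = 1 →
      4 * Matrix.trace (y : M4 F) * Matrix.trace ((y⁻¹ : GL (Fin 4) F) : M4 F) =
        (Nat.card (C0 ι y) : F)

/-- [CENTCNT] orbit counting. -/
def PkgCentCnt : Prop :=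
  ∀ (F : Type u) [Field F] [Fintype F], (2 : F) ≠ 0 → ∀ ι : F, ι ^ 2 = -1 →
    ∀ y ∈ N0 ι, ∀ r : ℕ, r.Prime → y ^ r = 1 → Nat.card (C0 ι y) ≡ 64 [MOD r]

/-- [CENTDIV] the centralizer in `R0` contains the four scalars and `R0` has order 64. -/
def PkgCentDiv : Prop :=
  ∀ (F : Type u) [Field F] [Fintype F], (2 : F) ≠ 0 → ∀ ι : F, ι ^ 2 = -1 →
    ∀ y : GL (Fin 4) F, 4 ∣ Nat.card (C0 ι y) ∧ Nat.card (C0 ι y) ∣ 64

/-- [CENT8] an element of order 7 of `N(R0)` cannot have a centralizer of order 8 in `R0`. -/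
def PkgCent8 : Prop :=
  ∀ (F : Type u) [Field F] [Fintype F], (2 : F) ≠ 0 → ∀ ι : F, ι ^ 2 = -1 →
    ∀ y ∈ N0 ι, y ^ 7 = 1 → Nat.card (C0 ι y) ≠ 8

/-- [CENTALL] an element centralizing `R0` is scalar. -/
def PkgCentAll : Prop :=
  ∀ (F : Type u) [Field F] [Fintype F], (2 : F) ≠ 0 → ∀ ι : F, ι ^ 2 = -1 →
    ∀ y : GL (Fin 4) F, Nat.card (C0 ι y) = 64 → IsScal y

/-! ## Derangements -/

/-- [TRANSV] `p = 5`: a transvection is conjugate to no element of `N(R0)`. -/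
def PkgTransv : Prop :=
  ∀ (F : Type u) [Field F] [Fintype F] (p : ℕ) [Fact p.Prime] [CharP F p],
    Fintype.card F = p → p = 5 → ∀ ι : F, ι ^ 2 = -1 →
    ∃ x ∈ SL4 F, x ^ 5 = 1 ∧ ¬ IsScal x ∧ ∀ g : GL (Fin 4) F, g⁻¹ * x * g ∉ N0 ι

/-- [BIG] Cauchy: a non-scalar element of order `r ≥ 7` of `SL_4`. -/
def PkgBig : Prop :=
  ∀ (F : Type u) [Field F] [Fintype F] (r : ℕ), r.Prime → 7 ≤ r → r ∣ Nat.card (SL4 F) →
    ∃ x ∈ SL4 F, x ^ r = 1 ∧ ¬ IsScal x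

/-- [BAD3] `p ≡ 1 (mod 3)`: `diag(ω, ω, ω, 1)`. -/
def PkgBad3 : Prop :=
  ∀ (F : Type u) [Field F] [Fintype F] (p : ℕ) [Fact p.Prime] [CharP F p],
    Fintype.card F = p → p % 3 = 1 →
    ∃ x ∈ SL4 F, x ^ 3 = 1 ∧ ¬ IsScal x ∧
      Matrix.trace (x : M4 F) * Matrix.trace ((x⁻¹ : GL (Fin 4) F) : M4 F) = 7

/-- [BAD5] `p ≡ ± 1 (mod 5)`: `companion(X^2 - t X + 1) ⊕ 1 ⊕ 1` with `t^2 + t - 1 = 0`. -/
def PkgBad5 : Prop :=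
  ∀ (F : Type u) [Field F] [Fintype F] (p : ℕ) [Fact p.Prime] [CharP F p],
    Fintype.card F = p → p % 4 = 1 → p ≠ 5 → orderOf (p : ZMod 5) ≠ 4 →
    ∃ x ∈ SL4 F, x ^ 5 = 1 ∧ ¬ IsScal x ∧ ∃ t : F, t ^ 2 + t - 1 = 0 ∧
      Matrix.trace (x : M4 F) = t + 2 ∧ Matrix.trace ((x⁻¹ : GL (Fin 4) F) : M4 F) = t + 2

end Cfsg.Agent.Lib.Helper99.C64
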