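import Cfsg.Agent.Lib.Helper99.C64.Defs

/-!
# S6000 (team project C64): assembly from the packages
-/

set_option autoImplicit false

namespace Cfsg.Agent.Lib.Helper99.C64

open Matrix

universe u

section glue

variable {F : Type u} [Field F]

theorem scal_comm {x : GL (Fin 4) F} {z : F} (hx : (x : M4 F) = z • (1 : M4 F))
    (h : GL (Fin 4) F) : x * h = h * x := by
  apply Units.ext
  rw [Units.val_mul, Units.val_mul, hx]
  simp

theorem scal_conj {x : GL (Fin 4) F} {z : F} (hx : (x : M4 F) = z • (1 : M4 F))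
    (h : GL (Fin 4) F) : h⁻¹ * x * h = x := by
  rw [mul_assoc, scal_comm hx h, ← mul_assoc, inv_mul_cancel, one_mul]

theorem isScal_conj_iff (h x : GL (Fin 4) F) : IsScal (h⁻¹ * x * h) ↔ IsScal x := by
  constructor
  · rintro ⟨z, hz⟩
    have h1 := scal_conj hz h⁻¹
    rw [inv_inv] at h1
    have h2 : h * (h⁻¹ * x * h) * h⁻¹ = x := by group
    rw [h2] at h1
    exact ⟨z, by rw [h1]; exact hz⟩
  · rintro ⟨z, hz⟩
    exact ⟨z, by rw [scal_conj hz h]; exact hz⟩

theorem conj_pow_inv (g x : GL (Fin 4) F) (n : ℕ) : (g⁻¹ * x * g) ^ n = g⁻¹ * x ^ n * g := by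
  have := conj_pow (a := g⁻¹) (b := x) (i := n)
  simpa using this

theorem trace_conj (g x : GL (Fin 4) F) :
    Matrix.trace ((g⁻¹ * x * g : GL (Fin 4) F) : M4 F) = Matrix.trace (x : M4 F) := by
  rw [Units.val_mul, Units.val_mul, Matrix.trace_mul_cycle, ← Units.val_mul, mul_inv_cancel,
    Units.val_one, Matrix.one_mul]

theorem trace_conj_inv (g x : GL (Fin 4) F) :
    Matrix.trace (((g⁻¹ * x * g)⁻¹ : GL (Fin 4) F) : M4 F) =
      Matrix.trace ((x⁻¹ : GL (Fin 4) F) : M4 F) := by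
  have : (g⁻¹ * x * g)⁻¹ = g⁻¹ * x⁻¹ * g := by group
  rw [this, trace_conj]

theorem sl4_conj {x : GL (Fin 4) F} (hx : x ∈ SL4 F) (h : GL (Fin 4) F) :
    h * x * h⁻¹ ∈ SL4 F := by
  have hn : (Cfsg.Geo.specialLinear (Fin 4) F).Normal := by
    unfold Cfsg.Geo.specialLinear
    infer_instance
  exact hn.conj_mem x hx h

theorem sl4_conj' {x : GL (Fin 4) F} (hx : x ∈ SL4 F) (h : GL (Fin 4) F) :
    h⁻¹ * x * h ∈ SL4 F := by
  have := sl4_conj hx h⁻¹
  simpa using this

theorem cent_cases {c : ℕ} (h4 : 4 ∣ c) (h64 : c ∣ 64) :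
    c = 4 ∨ c = 8 ∨ c = 16 ∨ c = 32 ∨ c = 64 := by
  have h1 : c ∣ 2 ^ 6 := by norm_num; exact h64
  obtain ⟨k, hk, rfl⟩ := (Nat.dvd_prime_pow Nat.prime_two).1 h1
  interval_cases k <;> simp_all

end glue

section main

variable {F : Type u} [Field F] [Fintype F]

/-- The centralizer lemma in the form used below. -/
theorem cent_facts (hTr : PkgCentTr.{u}) (hCnt : PkgCentCnt.{u}) (hDiv : PkgCentDiv.{u})
    (h8 : PkgCent8.{u}) (hAll : PkgCentAll.{u}) (h2 : (2 : F) ≠ 0) {ι : F} (hι : ι ^ 2 = -1)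
    {y : GL (Fin 4) F} (hy : y ∈ N0 ι) {r : ℕ} (hr : r.Prime) (hodd : Odd r) (hyr : y ^ r = 1)
    (hns : ¬ IsScal y) :
    ∃ c : ℕ, (c = 4 ∨ c = 8 ∨ c = 16 ∨ c = 32) ∧ c ≡ 64 [MOD r] ∧
      4 * Matrix.trace (y : M4 F) * Matrix.trace ((y⁻¹ : GL (Fin 4) F) : M4 F) = (c : F) ∧
      (r = 7 → c ≠ 8) := by
  refine ⟨Nat.card (C0 ι y), ?_, hCnt F h2 ι hι y hy r hr hyr, hTr F h2 ι hι y hy r hodd hyr, ?_⟩
  · obtain ⟨h4, h64⟩ := hDiv F h2 ι hι y
    rcases cent_cases h4 h64 with h | h | h | h | h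
    · exact Or.inl h
    · exact Or.inr (Or.inl h)
    · exact Or.inr (Or.inr (Or.inl h))
    · exact Or.inr (Or.inr (Or.inr h))
    · exact absurd (hAll F h2 ι hι y h) hns
  · intro h7
    subst h7
    exact h8 F h2 ι hι y hy hyr

theorem orderOf_five_ne : orderOf (((5 : ℕ) : ZMod 5)) ≠ 4 := by
  intro h
  have h1 : ((5 : ℕ) : ZMod 5) ^ 4 = 1 := by rw [← h]; exact pow_orderOf_eq_one _
  exact absurd h1 (by decide)

omit [Fintype F] in
theorem natCast_ne_zero' {p : ℕ} [CharP F p] {n : ℕ} (h0 : 0 < n) (hn : n < p) : (n : F) ≠ 0 := by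
  intro h
  rw [CharP.cast_eq_zero_iff F p n] at h
  exact absurd (Nat.le_of_dvd h0 h) (by omega)

/-- S6000 for the standard group. -/
theorem std_iff (hPos2 : PkgPos2.{u}) (hPos3 : PkgPos3.{u}) (hPos5 : PkgPos5.{u})
    (hTr : PkgCentTr.{u}) (hCnt : PkgCentCnt.{u}) (hDiv : PkgCentDiv.{u})
    (h8 : PkgCent8.{u}) (hAll : PkgCentAll.{u}) (hTransv : PkgTransv.{u}) (hBig : PkgBig.{u})
    (hBad3 : PkgBad3.{u}) (hBad5 : PkgBad5.{u})
    {p : ℕ} [Fact p.Prime] [CharP F p] (hF : Fintype.card F = p) (hp4 : p % 4 = 1)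
    {ι : F} (hι : ι ^ 2 = -1) (r : ℕ) [Fact r.Prime]
    (hdvd : r ∣ Nat.card (SL4 F)) :
    (∀ x ∈ SL4 F, (∃ z : F, ((x ^ r : GL (Fin 4) F) : M4 F) = z • (1 : M4 F)) → ¬ IsScal x →
      ∃ g ∈ SL4 F, g⁻¹ * x * g ∈ N0 ι) ↔
    (r = 2 ∨ (r = 3 ∧ p % 3 = 2) ∨ (r = 5 ∧ orderOf (p : ZMod 5) = 4)) := by
  have hp : p.Prime := Fact.out
  have hr : r.Prime := Fact.out
  have hp5 : 5 ≤ p := by
    have := hp.two_le
    omega
  have h2 : (2 : F) ≠ 0 := by
    have := natCast_ne_zero' (F := F) (p := p) (n := 2) (by norm_num) (by omega)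
    exact_mod_cast this
  have h4 : (4 : F) ≠ 0 := by
    have := natCast_ne_zero' (F := F) (p := p) (n := 4) (by norm_num) (by omega)
    exact_mod_cast this
  have hord5 : p = 5 → orderOf ((p : ℕ) : ZMod 5) ≠ 4 := by
    intro h5
    rw [h5]
    exact orderOf_five_ne
  have hdec : orderOf ((p : ℕ) : ZMod 5) = 4 ∨ orderOf ((p : ℕ) : ZMod 5) ≠ 4 := em _
  -- the common derangement argument
  have kill : ∀ x ∈ SL4 F, x ^ r = 1 → ¬ IsScal x → Odd r →
      (∀ c : ℕ, (c = 4 ∨ c = 8 ∨ c = 16 ∨ c = 32) → c ≡ 64 [MOD r] →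
        4 * Matrix.trace (x : M4 F) * Matrix.trace ((x⁻¹ : GL (Fin 4) F) : M4 F) = (c : F) →
        (r = 7 → c ≠ 8) → False) →
      ¬ (∀ x ∈ SL4 F, (∃ z : F, ((x ^ r : GL (Fin 4) F) : M4 F) = z • (1 : M4 F)) → ¬ IsScal x →
        ∃ g ∈ SL4 F, g⁻¹ * x * g ∈ N0 ι) := by
    intro x hx hxr hns hodd hc hL
    obtain ⟨g, -, hg⟩ := hL x hx ⟨1, by rw [hxr]; simp⟩ hns
    have hyr : (g⁻¹ * x * g) ^ r = 1 := by rw [conj_pow_inv, hxr]; group
    have hyns : ¬ IsScal (g⁻¹ * x * g) := fun h => hns ((isScal_conj_iff g x).1 h)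
    obtain ⟨c, hc1, hc2, hc3, hc4⟩ := cent_facts hTr hCnt hDiv h8 hAll h2 hι hg hr hodd hyr hyns
    rw [trace_conj, trace_conj_inv] at hc3
    exact hc c hc1 hc2 hc3 hc4
  by_cases hr2 : r = 2
  · subst hr2
    constructor
    · intro _; exact Or.inl rfl
    · intro _ x hx hz hns
      exact hPos2 F p hF hp4 ι hι x hx hz hns
  by_cases hr3 : r = 3
  · subst hr3
    by_cases hp3 : p % 3 = 2
    · constructor
      · intro _; exact Or.inr (Or.inl ⟨rfl, hp3⟩)
      · intro _ x hx hz hns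
        exact hPos3 F p hF hp4 hp3 ι hι x hx hz hns
    · have hp31 : p % 3 = 1 := by
        have h0 : p % 3 ≠ 0 := by
          intro h0
          have : 3 ∣ p := Nat.dvd_of_mod_eq_zero h0
          have := (Nat.prime_dvd_prime_iff_eq Nat.prime_three hp).1 this
          omega
        omega
      constructor
      · intro hL
        exfalso
        obtain ⟨x, hx, hx3, hns, htr⟩ := hBad3 F p hF hp31
        refine kill x hx hx3 hns (by decide) ?_ hL
        intro c hc1 hc2 hc3 _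
        have e : (4 : F) * 7 = (c : F) := by rw [← hc3, ← htr]; ring
        rcases hc1 with rfl | rfl | rfl | rfl
        · have h24 : ((24 : ℕ) : F) = 0 := by push_cast; push_cast at e; linear_combination e
          rw [CharP.cast_eq_zero_iff F p 24] at h24
          have := Nat.le_of_dvd (by norm_num) h24
          interval_cases p <;> omega
        · exact absurd hc2 (by decide)
        · have h12 : ((12 : ℕ) : F) = 0 := by push_cast; push_cast at e; linear_combination e
          rw [CharP.cast_eq_zero_iff F p 12] at h12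
          have := Nat.le_of_dvd (by norm_num) h12
          interval_cases p <;> omega
        · exact absurd hc2 (by decide)
      · rintro (h | ⟨-, h⟩ | ⟨h, -⟩)
        · omega
        · omega
        · omega
  by_cases hr5 : r = 5
  · subst hr5
    by_cases hp5' : p = 5
    · have hord : orderOf ((p : ℕ) : ZMod 5) ≠ 4 := hord5 hp5'
      constructor
      · intro hL
        exfalso
        obtain ⟨x, hx, hx5, hns, hder⟩ := hTransv F p hF hp5' ι hι
        obtain ⟨g, -, hg⟩ := hL x hx ⟨1, by rw [hx5]; simp⟩ hns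
        exact hder g hg
      · rintro (h | ⟨h, -⟩ | ⟨-, h⟩)
        · omega
        · omega
        · exact absurd h hord
    · rcases hdec with hord | hord
      · constructor
        · intro _; exact Or.inr (Or.inr ⟨rfl, hord⟩)
        · intro _ x hx hz hns
          exact hPos5 F p hF hp4 hord ι hι x hx hz hns
      · constructor
        · intro hL
          exfalso
          obtain ⟨x, hx, hx5, hns, t, ht, htr1, htr2⟩ := hBad5 F p hF hp4 hp5' hord
          refine kill x hx hx5 hns (by decide) ?_ hL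
          intro c hc1 hc2 hc3 _
          rw [htr1, htr2] at hc3
          rcases hc1 with rfl | rfl | rfl | rfl
          · have e1 : (t + 2) ^ 2 - 1 = 0 := by
              have : (4 : F) * ((t + 2) ^ 2 - 1) = 0 := by push_cast at hc3; linear_combination hc3
              rcases mul_eq_zero.1 this with h | h
              · exact absurd h h4
              · exact h
            have h5 : ((5 : ℕ) : F) = 0 := by
              push_cast
              linear_combination (3 * t - 1) * e1 - (3 * t + 8) * ht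
            rw [CharP.cast_eq_zero_iff F p 5] at h5
            exact hp5' ((Nat.prime_dvd_prime_iff_eq hp (by norm_num)).1 h5)
          · exact absurd hc2 (by decide)
          · exact absurd hc2 (by decide)
          · exact absurd hc2 (by decide)
        · rintro (h | ⟨h, -⟩ | ⟨-, h⟩)
          · omega
          · omega
          · exact absurd h hord
  · have hr7 : 7 ≤ r := by
      have := hr.two_le
      by_contra hlt
      have : r = 4 ∨ r = 6 := by omega
      rcases this with rfl | rfl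
      · exact absurd hr (by decide)
      · exact absurd hr (by decide)
    have hodd : Odd r := hr.odd_of_ne_two hr2
    constructor
    · intro hL
      exfalso
      obtain ⟨x, hx, hxr, hns⟩ := hBig F r hr hr7 hdvd
      refine kill x hx hxr hns hodd ?_ hL
      intro c hc1 hc2 _ hc4
      have key : ∀ n : ℕ, n ≤ 64 → n ≡ 64 [MOD r] → r ∣ 64 - n := by
        intro n hn h
        exact (Nat.modEq_iff_dvd' hn).1 h
      rcases hc1 with rfl | rfl | rfl | rfl
      · have hd := key 4 (by norm_num) hc2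
        have := Nat.le_of_dvd (by norm_num) hd
        interval_cases r <;> first | omega | (exact absurd hr (by decide))
      · have hd := key 8 (by norm_num) hc2
        have := Nat.le_of_dvd (by norm_num) hd
        have h7 : r = 7 := by
          interval_cases r <;> first | omega | (exact absurd hr (by decide))
        exact hc4 h7 rfl
      · have hd := key 16 (by norm_num) hc2
        have := Nat.le_of_dvd (by norm_num) hd
        interval_cases r <;> first | omega | (exact absurd hr (by decide))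
      · have hd := key 32 (by norm_num) hc2
        have := Nat.le_of_dvd (by norm_num) hd
        interval_cases r <;> first | omega | (exact absurd hr (by decide))
    · rintro (h | ⟨h, -⟩ | ⟨h, -⟩)
      · exact absurd h hr2
      · exact absurd h hr3
      · exact absurd h hr5

/-- S6000 from the packages. -/
theorem s6000_of (hFrame : PkgFrame.{u}) (hPos2 : PkgPos2.{u}) (hPos3 : PkgPos3.{u})
    (hPos5 : PkgPos5.{u}) (hTr : PkgCentTr.{u}) (hCnt : PkgCentCnt.{u}) (hDiv : PkgCentDiv.{u})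
    (h8 : PkgCent8.{u}) (hAll : PkgCentAll.{u}) (hTransv : PkgTransv.{u}) (hBig : PkgBig.{u})
    (hBad3 : PkgBad3.{u}) (hBad5 : PkgBad5.{u})
    {p : ℕ} [Fact p.Prime] [CharP F p] (hF : Fintype.card F = p) (hp4 : p % 4 = 1)
    (R : Subgroup (GL (Fin 4) F)) (hR : Cfsg.Geo.IsLinearSymplecticTypeData 2 R)
    (hR6 : Nat.card R = 2 ^ 6) (r : ℕ) [Fact r.Prime]
    (hΩ : r ∣ (Cfsg.Geo.subgroupNormalizer R).relIndex (Cfsg.Geo.specialLinear (Fin 4) F)) :
    (∀ x ∈ Cfsg.Geo.specialLinear (Fin 4) F,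
      (∃ z : F, ((x ^ r : GL (Fin 4) F) : Matrix (Fin 4) (Fin 4) F) =
        z • (1 : Matrix (Fin 4) (Fin 4) F)) →
      (∀ z : F, (x : Matrix (Fin 4) (Fin 4) F) ≠ z • (1 : Matrix (Fin 4) (Fin 4) F)) →
      ∃ g ∈ Cfsg.Geo.specialLinear (Fin 4) F, g⁻¹ * x * g ∈ Cfsg.Geo.subgroupNormalizer R) ↔
    (r = 2 ∨ (r = 3 ∧ p % 3 = 2) ∨ (r = 5 ∧ orderOf (p : ZMod 5) = 4)) := by
  obtain ⟨ι, hι, h, hh⟩ := hFrame F p hF hp4 R hR hR6
  have hdvd : r ∣ Nat.card (SL4 F) := dvd_trans hΩ (Subgroup.relIndex_dvd_card _ _)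
  rw [← std_iff hPos2 hPos3 hPos5 hTr hCnt hDiv h8 hAll hTransv hBig hBad3 hBad5 hF hp4 hι r hdvd]
  constructor
  · intro hL x hx hz hns
    have hx' : h * x * h⁻¹ ∈ SL4 F := sl4_conj hx h
    obtain ⟨z, hz⟩ := hz
    have hpow : (h * x * h⁻¹) ^ r = x ^ r := by
      rw [conj_pow]
      have := scal_conj hz h⁻¹
      rw [inv_inv] at this
      exact this
    have hns' : ∀ z : F, ((h * x * h⁻¹ : GL (Fin 4) F) : Matrix (Fin 4) (Fin 4) F) ≠
        z • (1 : Matrix (Fin 4) (Fin 4) F) := by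
      intro z' hz'
      apply hns
      have := (isScal_conj_iff h⁻¹ x).1 (by rw [inv_inv]; exact ⟨z', hz'⟩)
      exact this
    obtain ⟨g, hg, hgN⟩ := hL (h * x * h⁻¹) hx' ⟨z, by rw [hpow]; exact hz⟩ hns'
    refine ⟨h⁻¹ * g * h, sl4_conj' hg h, ?_⟩
    have := (hh _).1 hgN
    have e : h⁻¹ * (g⁻¹ * (h * x * h⁻¹) * g) * h = (h⁻¹ * g * h)⁻¹ * x * (h⁻¹ * g * h) := by group
    rw [e] at this
    exact this
  · intro hL x hx hz hns
    have hx' : h⁻¹ * x * h ∈ SL4 F := sl4_conj' hx h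
    obtain ⟨z, hz⟩ := hz
    have hpow : (h⁻¹ * x * h) ^ r = x ^ r := by
      rw [conj_pow_inv]
      exact scal_conj hz h
    have hns' : ¬ IsScal (h⁻¹ * x * h) := by
      intro hs
      obtain ⟨z', hz'⟩ := (isScal_conj_iff h x).1 hs
      exact hns z' hz'
    obtain ⟨g, hg, hgN⟩ := hL (h⁻¹ * x * h) hx' ⟨z, by rw [hpow]; exact hz⟩ hns'
    refine ⟨h * g * h⁻¹, sl4_conj hg h, ?_⟩
    rw [hh]
    have e : h⁻¹ * ((h * g * h⁻¹)⁻¹ * x * (h * g * h⁻¹)) * h = g⁻¹ * (h⁻¹ * x * h) * g := by group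
    rw [e]
    exact hgN

end main

end Cfsg.Agent.Lib.Helper99.C64
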